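import Mathlib
import Cfsg.Agent.Lib.Helper80.MinSU2.Defs
import Cfsg.Agent.Lib.Helper90.MinSU.E1aCore
import Cfsg.Agent.Lib.Helper22.MinSU.oLOC2
import Cfsg.Agent.Lib.Helper81.MinSU.PEI

/-! [tE1a] of the S2153 farm (adapted from helper90's [oE1a]). -/

set_option autoImplicit false

namespace Cfsg.Agent.Lib.Helper89.MinSU2

open Matrix Cfsg.Agent.Lib.Helper13 Cfsg.Agent.Lib.Helper5 Cfsg.Agent.Lib.Helper57.RootSU
  Cfsg.Agent.Lib.Helper83.MinSU Cfsg.Agent.Lib.Helper81.MinSU Cfsg.Agent.Lib.Helper80.MinSU2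
open Cfsg.Agent.Lib.Helper90.MinSU.O (pull mem_pull index_pull_le two_eq_zero4 one_skew4 card_units4
  card_eq_lam_mul)

variable {F : Type*} [Field F] [Fintype F]

lemma card_SU6 (hF : Fintype.card F = 2 ^ 2) : Nat.card (Cfsg.SU 6 F 2) = 27590492160 := by
  have h := Cfsg.Agent.S0278.result hF 6 (by norm_num)
  simp only [Finset.prod_range_succ, Finset.prod_range_zero] at h
  norm_num [Nat.even_iff] at h
  omega

lemma NU_2_6 : NU 2 6 = 693 := by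
  unfold NU; norm_num

/-- `rho 0 1 ∉ pull K g e` when `ut (g e) 1 ∉ K`. -/
lemma rho_not_mem_pull (hF : Fintype.card F = 2 ^ 2) (e : Fin 6 → F) (L : ULoc 4 F 2 (Pe 2 e))
    (hee : Cfsg.hermForm 6 F 2 e e = 0)
    (hrho0 : ∀ a : F, a + a ^ 2 = 0 → ((L.rho 0 a : Pe 2 e) : Cfsg.SU 6 F 2) = ut hF e a)
    (K : Subgroup (Cfsg.SU 6 F 2)) (g : Cfsg.SU 6 F 2) (hvK : ut hF (g.1.1 *ᵥ e) 1 ∉ K) :
    L.rho 0 1 ∉ pull K g e := by
  rw [mem_pull, hrho0 1 (one_skew4 hF), ut_conj hF g hee (one_skew4 hF)]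
  exact hvK

/-- the stabiliser of `g e` in `K` corresponds to `pull K g e ⊓ ker lam`. -/
lemma card_stab_eq (e : Fin 6 → F) (L : ULoc 4 F 2 (Pe 2 e)) (he0 : e ≠ 0)
    (hlam : ∀ g : Pe 2 e, (g : Cfsg.SU 6 F 2).1.1 *ᵥ e = (L.lam g : F) • e)
    (K : Subgroup (Cfsg.SU 6 F 2)) (g : Cfsg.SU 6 F 2) :
    Nat.card {k : K // (k : Cfsg.SU 6 F 2).1.1 *ᵥ (g.1.1 *ᵥ e) = g.1.1 *ᵥ e}
      = Nat.card {s : pull K g e // L.lam (s : Pe 2 e) = 1} := by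
  have hfix : ∀ k : Cfsg.SU 6 F 2, k.1.1 *ᵥ (g.1.1 *ᵥ e) = g.1.1 *ᵥ e →
      (g⁻¹ * k * g).1.1 *ᵥ e = e := by
    intro k hk
    rw [SU_mul_mulVec, SU_mul_mulVec, hk, SU_inv_mulVec_mulVec]
  have hfix' : ∀ k : Cfsg.SU 6 F 2, k.1.1 *ᵥ e = e → (k⁻¹).1.1 *ᵥ e = e := by
    intro k hk
    conv_lhs => rw [← hk]
    rw [SU_inv_mulVec_mulVec]
  have hPe : ∀ k : Cfsg.SU 6 F 2, k.1.1 *ᵥ e = e → k ∈ Pe 2 e := by
    intro k hk
    apply mem_Pe_of_map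
    · rw [hk]; exact Submodule.mem_span_singleton_self e
    · rw [hfix' k hk]; exact Submodule.mem_span_singleton_self e
  have hl1 : ∀ p : Pe 2 e, (p : Cfsg.SU 6 F 2).1.1 *ᵥ e = e ↔ L.lam p = 1 := by
    intro p
    rw [hlam p]
    constructor
    · intro h
      have h2 : ((L.lam p : F) - 1) • e = 0 := by rw [sub_smul, h, one_smul, sub_self]
      rcases smul_eq_zero.mp h2 with h3 | h3
      · exact Units.ext (by simpa using sub_eq_zero.mp h3)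
      · exact absurd h3 he0
    · intro h
      rw [h]; simp
  refine Nat.card_congr
    { toFun := fun k => ⟨⟨⟨g⁻¹ * (k.1 : Cfsg.SU 6 F 2) * g, hPe _ (hfix _ k.2)⟩, ?_⟩, ?_⟩
      invFun := fun s => ⟨⟨g * ((s.1 : Pe 2 e) : Cfsg.SU 6 F 2) * g⁻¹, (mem_pull K g e _).mp s.1.2⟩, ?_⟩
      left_inv := ?_
      right_inv := ?_ }
  · rw [mem_pull]
    have : g * (g⁻¹ * (k.1 : Cfsg.SU 6 F 2) * g) * g⁻¹ = k.1 := by group
    show g * (g⁻¹ * (k.1 : Cfsg.SU 6 F 2) * g) * g⁻¹ ∈ K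
    rw [this]; exact k.1.2
  · exact (hl1 _).mp (hfix _ k.2)
  · have h := (hl1 _).mpr s.2
    show (g * ((s.1 : Pe 2 e) : Cfsg.SU 6 F 2) * g⁻¹).1.1 *ᵥ (g.1.1 *ᵥ e) = g.1.1 *ᵥ e
    rw [SU_mul_mulVec, SU_mul_mulVec, SU_inv_mulVec_mulVec, h]
  · intro k
    apply Subtype.ext; apply Subtype.ext
    show g * (g⁻¹ * (k.1 : Cfsg.SU 6 F 2) * g) * g⁻¹ = k.1
    group
  · intro s
    apply Subtype.ext; apply Subtype.ext; apply Subtype.ext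
    show g⁻¹ * (g * ((s.1 : Pe 2 e) : Cfsg.SU 6 F 2) * g⁻¹) * g = _
    group

theorem bad_stab6_core (hF : Fintype.card F = 2 ^ 2) (e : Fin 6 → F) (L : ULoc 4 F 2 (Pe 2 e))
    (he0 : e ≠ 0) (hee : Cfsg.hermForm 6 F 2 e e = 0)
    (hrho0 : ∀ a : F, a + a ^ 2 = 0 → ((L.rho 0 a : Pe 2 e) : Cfsg.SU 6 F 2) = ut hF e a)
    (hlam : ∀ g : Pe 2 e, (g : Cfsg.SU 6 F 2).1.1 *ᵥ e = (L.lam g : F) • e)
    (hidx : (Pe 2 e).index = NU 2 6)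
    (htwo : ∀ S : Subgroup (Pe 2 e), L.rho 0 1 ∉ S → NU 2 (4 + 2) ≤ S.index ∨
      (L.Bb hF S = ⊥ ∧ L.S1 hF S = ⊤ ∧ L.Lam S = ⊤ ∧ S.index = 2 ^ (2 * 4 + 1)))
    (K : Subgroup (Cfsg.SU 6 F 2))
    (hK : K.index < 672) (v : Fin 6 → F) (hv : v ≠ 0) (hvv : Cfsg.hermForm 6 F 2 v v = 0)
    (hvK : ut hF v 1 ∉ K) :
    Nat.card {k : K // (k : Cfsg.SU 6 F 2).1.1 *ᵥ v = v} = 25920 := by
  obtain ⟨g, rfl⟩ := exists_su_map hF (by norm_num) e v he0 hv hee hvv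
  rw [card_stab_eq e L he0 hlam K g]
  have hA := rho_not_mem_pull hF e L hee hrho0 K g hvK
  have hle := index_pull_le K g e
  rcases htwo _ hA with h | ⟨-, -, hLam, hi⟩
  · rw [show (4 + 2 : ℕ) = 6 from rfl, NU_2_6] at h
    omega
  · have h1 := card_eq_lam_mul L (pull K g e)
    rw [hLam, Nat.card_congr Subgroup.topEquiv.toEquiv, card_units4 hF] at h1
    have h2 := (pull K g e).card_mul_index
    have h3 := (Pe 2 e).card_mul_index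
    rw [hidx, NU_2_6, card_SU6 hF] at h3
    rw [hi] at h2
    norm_num at h2
    omega

/-- [tE1a], with [tTWO] + [tWB4] as a hypothesis -/
theorem bad_stab6_of (hF : Fintype.card F = 2 ^ 2)
    (htwo : ∀ (e : Fin 6 → F) (L : ULoc 4 F 2 (Pe 2 e)) (S : Subgroup (Pe 2 e)),
      L.rho 0 1 ∉ S → NU 2 (4 + 2) ≤ S.index ∨
      (L.Bb hF S = ⊥ ∧ L.S1 hF S = ⊤ ∧ L.Lam S = ⊤ ∧ S.index = 2 ^ (2 * 4 + 1)))
    (K : Subgroup (Cfsg.SU 6 F 2))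
    (hK : K.index < 672) (v : Fin 6 → F) (hv : v ≠ 0) (hvv : Cfsg.hermForm 6 F 2 v v = 0)
    (hvK : ut hF v 1 ∉ K) :
    Nat.card {k : K // (k : Cfsg.SU 6 F 2).1.1 *ᵥ v = v} = 25920 := by
  obtain ⟨e, L, he0, hee, hrho0, -, hlam, -, -, -⟩ :=
    Cfsg.Agent.Lib.Helper22.MinSU.O.exists_loc2 hF 4 (by norm_num)
  exact bad_stab6_core hF e L he0 hee hrho0 hlam
    (Cfsg.Agent.Lib.Helper81.MinSU.index_Pe hF (by norm_num) (by decide) e he0 hee)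
    (htwo e L) K hK v hv hvv hvK

end Cfsg.Agent.Lib.Helper89.MinSU2
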