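import Mathlib
import Cfsg.Agent.Lib.Helper89.MinSU2.tE1aof
import Cfsg.Agent.Lib.Helper22.MinSU2.tTWO
import Cfsg.Agent.Lib.Helper83.MinSU2.tWB4

/-! [tE1a] of the S2153 farm, exact form. -/

set_option autoImplicit false

namespace Cfsg.Agent.Lib.Helper89.MinSU2

open Matrix Cfsg.Agent.Lib.Helper13 Cfsg.Agent.Lib.Helper5 Cfsg.Agent.Lib.Helper57.RootSU
  Cfsg.Agent.Lib.Helper83.MinSU Cfsg.Agent.Lib.Helper80.MinSU2

variable {F : Type*} [Field F] [Fintype F]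

/-- [tE1a] -/
theorem bad_stab6 (hF : Fintype.card F = 2 ^ 2) (K : Subgroup (Cfsg.SU 6 F 2))
    (hK : K.index < 672) (v : Fin 6 → F) (hv : v ≠ 0) (hvv : Cfsg.hermForm 6 F 2 v v = 0)
    (hvK : ut hF v 1 ∉ K) :
    Nat.card {k : K // (k : Cfsg.SU 6 F 2).1.1 *ᵥ v = v} = 25920 :=
  bad_stab6_of hF (fun _ L S hA => Cfsg.Agent.Lib.Helper22.MinSU2.local_two L S hF (by norm_num)
    (by decide) (Cfsg.Agent.Lib.Helper83.MinSU2.wb4_two hF) hA) K hK v hv hvv hvK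

end Cfsg.Agent.Lib.Helper89.MinSU2
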