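import Mathlib
import Cfsg.Agent.Lib.Helper80.MinSU2.Defs
import Cfsg.Agent.Lib.Helper84.MinSU.oENDof
import Cfsg.Agent.Lib.Helper15.MinSU2.tE3

set_option autoImplicit false

/-! helper80's farm S2153, piece tEND in hypothesis form (adapted from helper84's oENDof) -/

namespace Cfsg.Agent.Lib.Helper89.MinSU2

open Matrix Cfsg.Agent.Lib.Helper13 Cfsg.Agent.Lib.Helper5 Cfsg.Agent.Lib.Helper57.RootSU
  Cfsg.Agent.Lib.Helper83.MinSU Cfsg.Agent.Lib.Helper80.MinSU2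
open Cfsg.Agent.Lib.Helper8.MinSU (rs_inv)
open Cfsg.Agent.Lib.Helper84.MinSU.O (oZT0_two)

variable {F : Type*} [Field F] [Fintype F]

/-- the nonzero isotropic vectors -/
abbrev Iso6 (F : Type*) [Field F] := {x : Fin 6 → F // x ≠ 0 ∧ Cfsg.hermForm 6 F 2 x x = 0}

omit [Fintype F] in
theorem tEND_ne (k : Cfsg.SU 6 F 2) {x : Fin 6 → F} (hx : x ≠ 0) : k.1.1 *ᵥ x ≠ 0 := by
  intro h
  apply hx
  rw [← SU_inv_mulVec_mulVec k x, h, mulVec_zero]

instance tEND_act (K : Subgroup (Cfsg.SU 6 F 2)) : MulAction K (Iso6 F) where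
  smul k x := ⟨(k : Cfsg.SU 6 F 2).1.1 *ᵥ x.1, tEND_ne _ x.2.1, by rw [SU_preserves]; exact x.2.2⟩
  one_smul x := Subtype.ext (SU_one_mulVec x.1)
  mul_smul a b x := Subtype.ext (SU_mul_mulVec _ _ x.1)

omit [Fintype F] in
theorem tEND_smul (K : Subgroup (Cfsg.SU 6 F 2)) (k : K) (x : Iso6 F) :
    (k • x).1 = (k : Cfsg.SU 6 F 2).1.1 *ᵥ x.1 := rfl

theorem tEND_card_iso (hF : Fintype.card F = 2 ^ 2) : Nat.card (Iso6 F) = 2079 := by
  have h := Cfsg.Agent.S0285.result hF 6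
  rw [if_pos (by decide)] at h
  have h1 : ({v : Fin 6 → F | Cfsg.hermForm 6 F 2 v v = 0}).ncard = 2080 := by
    rw [← Nat.card_coe_set_eq]
    exact h
  have h2 : ({x : Fin 6 → F | x ≠ 0 ∧ Cfsg.hermForm 6 F 2 x x = 0})
      = {v : Fin 6 → F | Cfsg.hermForm 6 F 2 v v = 0} \ {0} := by
    ext x
    simp only [Set.mem_ofPred_eq, Set.mem_sdiff, Set.mem_singleton_iff]
    tauto
  have h3 : Nat.card (Iso6 F) = ({x : Fin 6 → F | x ≠ 0 ∧ Cfsg.hermForm 6 F 2 x x = 0}).ncard :=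
    Nat.card_coe_set_eq _
  have h0 : (0 : Fin 6 → F) ∈ {v : Fin 6 → F | Cfsg.hermForm 6 F 2 v v = 0} :=
    hermForm_zero_left 0
  rw [h3, h2, Set.ncard_sdiff_singleton_of_mem h0, h1]

theorem tEND_card_SU (hF : Fintype.card F = 2 ^ 2) : Nat.card (Cfsg.SU 6 F 2) = 27590492160 := by
  have h := Cfsg.Agent.S0278.result hF 6 (by norm_num)
  have h2 : (∏ i ∈ Finset.range 6, (if Even i then 2 ^ (i + 1) + 1 else 2 ^ (i + 1) - 1) : ℕ)
      = 2525985 := by decide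
  rw [h2] at h
  omega

theorem tEND_top (hF : Fintype.card F = 2 ^ 2) (K : Subgroup (Cfsg.SU 6 F 2))
    (h : ∀ v : Fin 6 → F, Cfsg.hermForm 6 F 2 v v = 0 → v ∈ RS hF K) : K = ⊤ := by
  rw [eq_top_iff, ← Cfsg.Agent.S0780.result hF 6 (by norm_num) (by omega), Subgroup.closure_le]
  rintro A ⟨v, c, hv, hA⟩
  by_cases hv0 : v = 0
  · have : A = 1 := by
      apply SU_ext_mulVec
      intro x
      rw [hA, unitaryTransvection_mulVec, hv0, SU_one_mulVec]; simp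
    rw [this]
    exact K.one_mem
  · have hc := skew_of_ut_mem hF A hv0 hv hA
    have : A = ut hF v c := by
      apply SU_ext_mulVec
      intro x
      rw [hA, unitaryTransvection_mulVec, ut_mulVec hF hv hc]
    rw [this]
    exact (h v hv).2 c hc

/-- an isotropic vector outside `RS` has `ut v 1 ∉ K` -/
theorem tEND_bad (hF : Fintype.card F = 2 ^ 2) (K : Subgroup (Cfsg.SU 6 F 2)) {v : Fin 6 → F}
    (hvv : Cfsg.hermForm 6 F 2 v v = 0) (hv : v ∉ RS hF K) : ut hF v 1 ∉ K := by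
  intro h1
  apply hv
  refine ⟨hvv, fun c hc => ?_⟩
  have hc' : c * (1 + c) = 0 := by linear_combination hc
  rcases mul_eq_zero.1 hc' with h0 | h0
  · rw [h0, ut_zero hF hvv]
    exact K.one_mem
  · have h2 := oZT0_two hF
    have : c = 1 := by linear_combination h0 - h2
    rw [this]
    exact h1

/-- [tEND], with the other `SU_6(2)` pieces as hypotheses -/
theorem end6_of (hF : Fintype.card F = 2 ^ 2)
    (hE1a : ∀ K : Subgroup (Cfsg.SU 6 F 2), K.index < 672 → ∀ v : Fin 6 → F, v ≠ 0 →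
      Cfsg.hermForm 6 F 2 v v = 0 → ut hF v 1 ∉ K →
      Nat.card {k : K // (k : Cfsg.SU 6 F 2).1.1 *ᵥ v = v} = 25920)
    (hE4 : ∀ K : Subgroup (Cfsg.SU 6 F 2), K.index < 672 → ∀ v : Fin 6 → F, v ≠ 0 →
      Cfsg.hermForm 6 F 2 v v = 0 → ut hF v 1 ∉ K →
      135 ≤ Nat.card {u : Fin 6 → F // u ≠ 0 ∧ u ∈ RS hF K ∧ Cfsg.hermForm 6 F 2 u v = 0})
    (hE1c : ∀ u : Fin 6 → F, u ≠ 0 → Cfsg.hermForm 6 F 2 u u = 0 →
      Nat.card {x : Fin 6 → F // x ≠ 0 ∧ Cfsg.hermForm 6 F 2 x x = 0 ∧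
        Cfsg.hermForm 6 F 2 x u = 0 ∧ ¬ ∃ c : F, x = c • u} = 540)
    (K : Subgroup (Cfsg.SU 6 F 2)) (hK : K ≠ ⊤) : 672 ≤ K.index := by
  classical
  by_contra hlt
  push Not at hlt
  have hcard := tEND_card_SU hF
  have hKi : Nat.card K * K.index = 27590492160 := by rw [Subgroup.card_mul_index, hcard]
  have hbig : 41057280 < Nat.card K := by
    by_contra hcon
    push Not at hcon
    have : Nat.card K * K.index ≤ 41057280 * 671 := Nat.mul_le_mul hcon (by omega)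
    omega
  have hdvd : Nat.card K ∣ 27590492160 := ⟨K.index, hKi.symm⟩
  let Pp : Set (Iso6 F) := {x | x.1 ∈ RS hF K}
  let perp : Iso6 F → Iso6 F → Prop := fun x y => Cfsg.hermForm 6 F 2 x.1 y.1 = 0
  have hN : ∃ x : Iso6 F, x ∉ Pp := by
    by_contra hcon
    push Not at hcon
    apply hK
    apply tEND_top hF
    intro v hv
    by_cases hv0 : v = 0
    · subst hv0
      refine ⟨hv, fun c hc => ?_⟩
      have : ut hF (0 : Fin 6 → F) c = 1 := by
        apply SU_ext_mulVec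
        intro x
        rw [ut_mulVec hF hv hc, SU_one_mulVec]
        simp
      rw [this]
      exact K.one_mem
    · exact hcon ⟨v, hv0, hv⟩
  have hinv : ∀ (g : K) (x : Iso6 F), x ∈ Pp ↔ g • x ∈ Pp := by
    intro g x
    constructor
    · intro hx
      exact (rs_inv hF K x.1 hx).1 g g.2
    · intro hx
      have := (rs_inv hF K _ hx).1 (g⁻¹ : K) (g⁻¹ : K).2
      rw [tEND_smul] at this
      have e : ((g⁻¹ : K) : Cfsg.SU 6 F 2) = (g : Cfsg.SU 6 F 2)⁻¹ := rfl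
      rw [e, SU_inv_mulVec_mulVec] at this
      exact this
  have hst : ∀ x : Iso6 F, x ∉ Pp → Nat.card (MulAction.stabilizer K x) = 25920 := by
    intro x hx
    rw [← hE1a K hlt x.1 x.2.1 x.2.2 (tEND_bad hF K x.2.2 hx)]
    apply Nat.card_congr
    apply Equiv.subtypeEquivRight
    intro k
    rw [MulAction.mem_stabilizer_iff, Subtype.ext_iff, tEND_smul]
  have h135 : ∀ x : Iso6 F, x ∉ Pp → 135 ≤ Nat.card {u : Iso6 F // u ∈ Pp ∧ perp u x} := by
    intro x hx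
    refine le_trans (hE4 K hlt x.1 x.2.1 x.2.2 (tEND_bad hF K x.2.2 hx)) (le_of_eq ?_)
    exact (Nat.card_congr
      { toFun := fun u => ⟨u.1.1, u.1.2.1, u.2.1, u.2.2⟩
        invFun := fun u => ⟨⟨u.1, u.2.1, u.2.2.1.1⟩, u.2.2.1, u.2.2.2⟩
        left_inv := fun u => rfl
        right_inv := fun u => rfl }).symm
  -- the injection for `h540`
  let inj : ∀ u : Iso6 F, u ∈ Pp → {x : Iso6 F // x ∉ Pp ∧ perp x u} →
      {x : Fin 6 → F // x ≠ 0 ∧ Cfsg.hermForm 6 F 2 x x = 0 ∧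
        Cfsg.hermForm 6 F 2 x u.1 = 0 ∧ ¬ ∃ c : F, x = c • u.1} :=
    fun u hu x => ⟨x.1.1, x.1.2.1, x.1.2.2, x.2.2, fun ⟨c, hc⟩ => x.2.1 (by
      show x.1.1 ∈ RS hF K
      rw [hc]
      exact (rs_inv hF K u.1 hu).2 c)⟩
  have hinj : ∀ (u : Iso6 F) (hu : u ∈ Pp), Function.Injective (inj u hu) := by
    intro u hu x y hxy
    apply Subtype.ext
    apply Subtype.ext
    have h1 : (inj u hu x).1 = (inj u hu y).1 := congrArg Subtype.val hxy
    exact h1
  have h540 : ∀ u : Iso6 F, u ∈ Pp → Nat.card {x : Iso6 F // x ∉ Pp ∧ perp x u} ≤ 540 := by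
    intro u hu
    rw [← hE1c u.1 u.2.1 u.2.2]
    exact Nat.card_le_card_of_injective _ (hinj u hu)
  exact Cfsg.Agent.Lib.Helper15.MinSU2.count_abs6 (G := K) Pp perp
    (fun x y h => hermForm_eq_zero_comm hF h) hinv (tEND_card_iso hF) hN hst h135 h540 hdvd hbig

end Cfsg.Agent.Lib.Helper89.MinSU2
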