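import Mathlib
import Cfsg.Agent.Lib.Helper89.MinSU2.tENDof
import Cfsg.Agent.Lib.Helper89.MinSU2.tE1a
import Cfsg.Agent.Lib.Helper83.MinSU2.tE1bx
import Cfsg.Agent.Lib.Helper79.MinSU2.tE1c
import Cfsg.Agent.Lib.Helper79.MinSU2.tE2
import Cfsg.Agent.Lib.Helper15.MinSU2.tE4

/-! [tEND] of the S2153 farm, exact form. -/

set_option autoImplicit false

namespace Cfsg.Agent.Lib.Helper89.MinSU2

open Matrix Cfsg.Agent.Lib.Helper13 Cfsg.Agent.Lib.Helper5 Cfsg.Agent.Lib.Helper57.RootSU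
  Cfsg.Agent.Lib.Helper83.MinSU Cfsg.Agent.Lib.Helper80.MinSU2

variable {F : Type*} [Field F] [Fintype F]

/-- [tEND] -/
theorem end6 (hF : Fintype.card F = 2 ^ 2) (K : Subgroup (Cfsg.SU 6 F 2)) (hK : K ≠ ⊤) :
    672 ≤ K.index :=
  end6_of hF (fun K h v a b c => bad_stab6 hF K h v a b c)
    (fun K hlt x hx hxx hxK => Cfsg.Agent.Lib.Helper15.MinSU2.rs_perp_ge hF K x hx hxx
      (fun y hyy hyx hy => Cfsg.Agent.Lib.Helper79.MinSU2.line_rs hF K
        (fun v y hv hvv hvK hyy hyx hy =>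
          Cfsg.Agent.Lib.Helper83.MinSU2.bad_partner hF K hlt v y hv hvv hvK hyy hyx hy)
        x y hx hxx hxK hyy hyx hy))
    (fun u a b => Cfsg.Agent.Lib.Helper79.MinSU2.perp_count6 hF u a b) K hK

end Cfsg.Agent.Lib.Helper89.MinSU2
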