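import Mathlib
import Cfsg.Agent.Lib.Helper80.MinSU2.Defs
import Cfsg.Agent.Lib.Helper37.MinSU.oS1d

/-! [tS1d] of the S2153 farm (adapted from helper37's [oS1d]). -/

set_option autoImplicit false

namespace Cfsg.Agent.Lib.Helper89.MinSU2

open Matrix Module Cfsg.Agent.Lib.Helper13 Cfsg.Agent.Lib.Helper5 Cfsg.Agent.Lib.Helper57.RootSU
  Cfsg.Agent.Lib.Helper83.MinSU Cfsg.Agent.Lib.Helper94 Cfsg.Agent.Lib.Helper94.U
  Cfsg.Agent.Lib.Helper28.MinSU Cfsg.Agent.Lib.Helper80.MinSU2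
open Cfsg.Agent.Lib.Helper37.MinSU.O (s1d_aux0 s1d_half_succ s1d_card_GU_one)

theorem t1d_n_le (m : ℕ) : m + 6 ≤ 2 ^ (m + 3) := by
  induction m with
  | zero => norm_num
  | succ m ih =>
    have : 2 ^ (m + 1 + 3) = 2 * 2 ^ (m + 3) := by ring
    omega

/-- `9 ME ≤ 2^(2n+1)` -/
theorem t1d_ME_sq {n : ℕ} (hn : 1 ≤ n) : ME n * (2 + 1) ^ 2 ≤ 2 ^ (2 * n + 1) := by
  have h1 : ME n * 3 ≤ 2 ^ (n - 1) * (2 ^ n - 1) := Nat.div_mul_le_self _ _
  have h2 : 2 ^ (n - 1) * (2 ^ n - 1) ≤ 2 ^ (n - 1) * 2 ^ n := Nat.mul_le_mul le_rfl (Nat.sub_le _ _)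
  have h3 : 2 ^ (n - 1) * 2 ^ n = 2 ^ (2 * n - 1) := by rw [← pow_add]; congr 1; omega
  have h4 : 2 ^ (2 * n + 1) = 4 * 2 ^ (2 * n - 1) := by
    have : 2 * n + 1 = 2 + (2 * n - 1) := by omega
    rw [this, pow_add]; norm_num
  rw [h4]
  have : ME n * (2 + 1) ^ 2 = 3 * (ME n * 3) := by ring
  omega

variable {F : Type*} [Field F] [Fintype F] {m n : ℕ}

theorem t1d_card_GU_succ {q : ℕ} (hF : Fintype.card F = q ^ 2) (k : ℕ) (hk : ¬ Even k) :
    Nat.card (Cfsg.GU (k + 1) F q) = Nat.card (Cfsg.GU k F q) * (q ^ k * (q ^ (k + 1) - 1)) := by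
  rw [card_GU hF (k + 1), card_GU hF k, s1d_half_succ, Finset.prod_range_succ, if_neg hk, pow_add]
  ring

/-- the exact case: a nondegenerate point or hyperplane -/
theorem t1d_exact (hF : Fintype.card F = 2 ^ 2) (k I : ℕ) (hk : ¬ Even k)
    (h : I * (Nat.card (Cfsg.GU 1 F 2) * Nat.card (Cfsg.GU k F 2)) =
      Nat.card (Cfsg.GU (k + 1) F 2)) : ME (k + 1) ≤ I := by
  have hfin : Finite (Cfsg.GU k F 2) := Subtype.finite
  have hpos : 0 < Nat.card (Cfsg.GU k F 2) := Nat.card_pos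
  rw [t1d_card_GU_succ hF k hk, s1d_card_GU_one hF] at h
  have h1 : I * 3 = 2 ^ k * (2 ^ (k + 1) - 1) := by
    apply Nat.eq_of_mul_eq_mul_right hpos
    rw [← mul_assoc] at h
    rw [h]; ring
  unfold ME
  rw [Nat.add_sub_cancel, ← h1, Nat.mul_div_cancel _ (by norm_num)]

/-- [tS1d] -/
theorem index_stab_nondeg (hF : Fintype.card F = 2 ^ 2) (hn : 6 ≤ n) (he : Even n)
    (W : Submodule F (Fin n → F)) (hW0 : W ≠ ⊥) (hW1 : W ≠ ⊤) (hW : Nondeg 2 W)
    (K : Subgroup (Cfsg.SU n F 2)) (hK : ∀ k ∈ K, ∀ x ∈ W, k.1.1 *ᵥ x ∈ W) :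
    ME n ≤ K.index ∧
      (3 ≤ Module.finrank F W → Module.finrank F W + 3 ≤ n → n * ME n ≤ K.index) := by
  have hle := index_St_le W K hK
  have h1 := index_St_mul hF (by omega) W
  rw [card_su_stab_nondeg_mul hF W hW0 hW] at h1
  set j := finrank F W with hj
  have hjpos : 0 < j := by
    rw [hj, Module.finrank_pos_iff, Submodule.nontrivial_iff_ne_bot]
    exact hW0
  have hjlt : j < n := by
    have := Submodule.finrank_lt hW1
    rwa [Module.finrank_fintype_fun_eq_card, Fintype.card_fin] at this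
  obtain ⟨l, hl⟩ : ∃ l, n = j + l := ⟨n - j, by omega⟩
  have hnl : n - j = l := by omega
  rw [hnl] at h1
  have hb := s1d_arith 2 j l _ _ _ _ (by omega) h1 (by rw [← hl]; exact (card_GU_bounds hF n).1)
    (card_GU_bounds hF j).2 (card_GU_bounds hF l).2
  have hNsq := t1d_ME_sq (n := n) (by omega)
  have hpos : 0 < (2 + 1) ^ 2 := by positivity
  generalize (St 2 W).index = I at h1 hb hle
  constructor
  · refine le_trans ?_ hle
    by_cases hj1 : j = 1
    · have hl' : n = l + 1 := by omega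
      have hev : ¬ Even l := by
        rcases he with ⟨t, ht⟩
        rintro ⟨s, hs⟩
        omega
      rw [hj1] at h1
      rw [hl'] at h1 ⊢
      exact t1d_exact hF l _ hev h1
    · by_cases hl1 : l = 1
      · have hl' : n = j + 1 := by omega
        have hev : ¬ Even j := by
          rcases he with ⟨t, ht⟩
          rintro ⟨s, hs⟩
          omega
        rw [hl1, mul_comm (Nat.card (Cfsg.GU j F 2))] at h1
        rw [hl'] at h1 ⊢
        exact t1d_exact hF j _ hev h1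
      · apply Nat.le_of_mul_le_mul_right _ hpos
        refine hNsq.trans (le_trans ?_ hb)
        apply Nat.pow_le_pow_right (by omega)
        have : 2 * (j + l) ≤ j * l + 4 := s1d_aux0 j l (by omega) (by omega)
        omega
  · intro h3 h3'
    refine le_trans ?_ hle
    apply Nat.le_of_mul_le_mul_right _ hpos
    refine le_trans ?_ hb
    have hnq : n ≤ 2 ^ (n - 3) := by
      obtain ⟨m', rfl⟩ : ∃ m', n = m' + 6 := ⟨n - 6, by omega⟩
      have := t1d_n_le m'
      have e : m' + 6 - 3 = m' + 3 := by omega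
      rw [e]; exact this
    calc n * ME n * (2 + 1) ^ 2 = n * (ME n * (2 + 1) ^ 2) := by ring
      _ ≤ 2 ^ (n - 3) * 2 ^ (2 * n + 1) := Nat.mul_le_mul hnq hNsq
      _ = 2 ^ (n - 3 + (2 * n + 1)) := by rw [← pow_add]
      _ ≤ 2 ^ (2 * (j * l) + 2) := by
          apply Nat.pow_le_pow_right (by omega)
          have : 3 * (j + l) ≤ j * l + 9 := s1d_aux2 j l h3 (by omega)
          omega

end Cfsg.Agent.Lib.Helper89.MinSU2
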