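import Mathlib
import Cfsg.Agent.Lib.Helper89.MinSU2.tS1of
import Cfsg.Agent.Lib.Helper89.MinSU2.tS1d
import Cfsg.Agent.Lib.Helper65.MinSU2.tS1c

/-! [tS1] of the S2153 farm, exact form. -/

set_option autoImplicit false

namespace Cfsg.Agent.Lib.Helper89.MinSU2

open Matrix Cfsg.Agent.Lib.Helper13 Cfsg.Agent.Lib.Helper5 Cfsg.Agent.Lib.Helper57.RootSU
  Cfsg.Agent.Lib.Helper83.MinSU Cfsg.Agent.Lib.Helper80.MinSU2

variable {F : Type*} [Field F] [Fintype F] {m n : ℕ}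

/-- [tS1] -/
theorem step1 (hF : Fintype.card F = 2 ^ 2) (hn : 6 ≤ n) (he : Even n)
    (K : Subgroup (Cfsg.SU n F 2)) (hK : K ≠ ⊤) (hB : HasBig hF K) :
    ME n ≤ K.index :=
  step1_of hF hn
    (fun R hR0 hR K hK => Cfsg.Agent.Lib.Helper65.MinSU2.index_stab_ti hF hn he R hR0 hR K hK)
    (fun W hW0 hW1 hW K hK => index_stab_nondeg hF hn he W hW0 hW1 hW K hK) K hK hB

end Cfsg.Agent.Lib.Helper89.MinSU2
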